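import Cfsg.Agent.Lib.Helper1.Bridge
import Cfsg.Agent.Lib.Helper3.EA
import Cfsg.Agent.Lib.Helper6.PAct

set_option autoImplicit false

namespace Cfsg.Agent.Lib.Helper9.Omega1

open Cfsg.Agent.Lib.Helper1 Cfsg.Agent.Lib.Helper3.PLocal Cfsg.Agent.Lib.Helper6.PAct

variable {G : Type*} [Group G]

/-- `p` odd: a `p'`-element normalising the `p`-group `H`, centralising the elementary abelian `E ≤ H` and all
elements of order `p` of `C_H(E)`, centralises `H`. -/
theorem mem_centralizer_of_omega [Finite G] {p : ℕ} [hp : Fact p.Prime] (hp2 : p ≠ 2) {H E : Subgroup G}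
    (hH : IsPGroup p H) (hE : E ≤ H) (hEe : Cfsg.IsElementaryAbelian p E) {a : G}
    (ha : a ∈ Subgroup.normalizer (H : Set G)) (hcop : (orderOf a).Coprime p)
    (hfix : ∀ x ∈ H ⊓ Subgroup.centralizer (E : Set G), orderOf x = p → a * x = x * a) :
    a ∈ Subgroup.centralizer (H : Set G) := by
  have hpp : p.Prime := hp.out
  have hEab := (ea_iff.1 hEe).1
  have hfix' : ∀ x ∈ H ⊓ Subgroup.centralizer (E : Set G), x ^ p = 1 → a * x = x * a := by
    intro x hx hxp
    by_cases h1 : x = 1
    · rw [h1]; simp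
    · exact hfix x hx (orderOf_eq_prime hxp h1)
  have haE : a ∈ Subgroup.centralizer (E : Set G) := by
    rw [Subgroup.mem_centralizer_iff]
    intro e he
    have hec : e ∈ Subgroup.centralizer (E : Set G) := by
      rw [Subgroup.mem_centralizer_iff]
      intro f hf
      exact hEab f hf e he
    exact (hfix' e ⟨hE he, hec⟩ (hEe.2 e he)).symm
  have haN : a ∈ Subgroup.normalizer ((H ⊓ Subgroup.centralizer (E : Set G) : Subgroup G) : Set G) := by
    apply Subgroup.mem_normalizer_fintype
    rintro x ⟨hxH, hxC⟩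
    refine ⟨(Subgroup.mem_normalizer_iff.1 ha x).1 hxH, ?_⟩
    exact Subgroup.mul_mem _ (Subgroup.mul_mem _ haE hxC) (Subgroup.inv_mem _ haE)
  have h1 : a ∈ Subgroup.centralizer ((H ⊓ Subgroup.centralizer (E : Set G) : Subgroup G) : Set G) :=
    mem_centralizer_of_small_order _ (hH.to_le inf_le_left) a haN hcop (dvd_refl p)
      (hpp.dvd_choose_self (by norm_num) (lt_of_le_of_ne hpp.two_le (Ne.symm hp2))) hfix'
  exact thompson_AxB hH (hH.to_le hE) (hE.trans Subgroup.le_normalizer) ha haE hcop h1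

end Cfsg.Agent.Lib.Helper9.Omega1
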