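import Mathlib
import Cfsg.Agent.Lib.Helper9.PComp

set_option autoImplicit false
set_option linter.unusedSectionVars false

/-! normalizers of `p`-components. -/

namespace Cfsg.Agent.Lib.Helper9.PComp

open Cfsg.Agent.Lib.Helper6.Basic Cfsg.Agent.Lib.Helper6.Subn Cfsg.Agent.Lib.Helper6.Quasi Cfsg.Agent.Lib.Helper6.Comp Cfsg.Agent.Lib.Helper6.Rad Cfsg.Agent.Lib.Helper6.Nil Cfsg.Agent.Lib.Helper6.FStar Cfsg.Agent.Lib.Helper6.FStar2 Cfsg.Agent.Lib.Helper6.PAct Cfsg.Agent.Lib.Helper6.CharP Cfsg.Agent.Lib.Helper6.Ores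

variable {X : Type*} [Group X] [Finite X] {p : ℕ} [hp : Fact p.Prime]

theorem core_le_Nz {K : Subgroup X} (hK : Cfsg.IsPComponent p K) :
    Cfsg.pPrimeCore p X ≤ Nz K := by
  intro o ho
  apply mem_Nz_of_pr hK
  have : pr p X o = 1 := (QuotientGroup.eq_one_iff o).mpr ho
  rw [this]
  exact Subgroup.one_mem _

/-- an element centralizing a Sylow `p`-subgroup of a `p`-component normalizes it -/
theorem Cz_syl_le_Nz {K S : Subgroup X} (hK : Cfsg.IsPComponent p K) (hS : Syl p S K) :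
    Cz S ≤ Nz K := by
  obtain ⟨hsn, hcomp, hmin⟩ := pc_iff.mp hK
  intro c hc
  apply mem_Nz_of_pr hK
  by_contra hcon
  have hne : K.map (pr p X) ≠ cj (pr p X c) (K.map (pr p X)) := by
    intro h
    exact hcon (cj_eq_self_iff.mp h.symm)
  have hcomp' : CompIn (cj (pr p X c) (K.map (pr p X))) ⊤ := by
    have := hcomp.cj (pr p X c)
    rwa [cj_top] at this
  have h1 : cj (pr p X c) (K.map (pr p X)) ≤ Cz (K.map (pr p X)) := hcomp.comm hcomp' hne
  have h2 : S.map (pr p X) ≤ Cz (K.map (pr p X)) := by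
    rintro _ ⟨s, hs, rfl⟩
    apply h1
    have e : c * s * c⁻¹ = s := by
      rw [← Subgroup.mem_centralizer_iff.mp hc s hs]; group
    have h3 : pr p X c * pr p X s * (pr p X c)⁻¹ ∈ cj (pr p X c) (K.map (pr p X)) :=
      conj_mem_cj (Subgroup.mem_map_of_mem _ (hS.le hs))
    rwa [← map_inv, ← map_mul, ← map_mul, e] at h3
  have hn : K.map (pr p X) ≤ Nz (K.map (pr p X) ⊓ Cz (K.map (pr p X))) :=
    le_Nz_inf Subgroup.le_normalizer (Subgroup.le_normalizer.trans (Nz_le_Nz_Cz _))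
  have h4 : K.map (pr p X) ⊓ Cz (K.map (pr p X)) = K.map (pr p X) := by
    apply eq_of_pEl_mem core_quot hcomp (SN.of_normal inf_le_left hn)
    intro y hy hyp
    refine ⟨hy, ?_⟩
    obtain ⟨x, hx, ⟨k, hk⟩, rfl⟩ := exists_lift hsn hy hyp
    obtain ⟨j, _, hj⟩ := (Nat.dvd_prime_pow hp.out).mp (orderOf_dvd_of_pow_eq_one hk)
    have hxp : IsPGroup p (Subgroup.zpowers x) :=
      IsPGroup.of_card (n := j) (by rw [Nat.card_zpowers, hj])
    obtain ⟨a, ha, ha2⟩ := hS.exists_le_cj hxp (Subgroup.zpowers_le.mpr hx)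
    have h5 : a⁻¹ * x * a ∈ S := mem_cj.mp (ha2 (Subgroup.mem_zpowers x))
    have h6 := h2 (Subgroup.mem_map_of_mem (pr p X) h5)
    have h7 : pr p X a ∈ Nz (Cz (K.map (pr p X))) :=
      Nz_le_Nz_Cz _ (Subgroup.le_normalizer (Subgroup.mem_map_of_mem _ ha))
    have h8 := (Subgroup.mem_normalizer_iff.mp h7 _).mp h6
    rw [← map_inv, ← map_mul, ← map_mul] at h8
    have e : a * (a⁻¹ * x * a) * a⁻¹ = x := by group
    rwa [e] at h8
  exact hcomp.2.not_le_Cz (inf_eq_left.mp h4)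

end Cfsg.Agent.Lib.Helper9.PComp
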