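import Mathlib
import Cfsg.Prelude.Def_Balance
import Cfsg.Agent.Lib.Helper9.PComp3
import Cfsg.Agent.Lib.Helper1.Coprime

set_option autoImplicit false
set_option linter.unusedSectionVars false

/-! the extended 2-layer. -/

namespace Cfsg.Agent.Lib.Helper9.PComp

open Cfsg.Agent.Lib.Helper6.Basic Cfsg.Agent.Lib.Helper6.Subn Cfsg.Agent.Lib.Helper6.Quasi Cfsg.Agent.Lib.Helper6.Comp Cfsg.Agent.Lib.Helper6.Rad Cfsg.Agent.Lib.Helper6.Nil Cfsg.Agent.Lib.Helper6.FStar Cfsg.Agent.Lib.Helper6.FStar2 Cfsg.Agent.Lib.Helper6.PAct Cfsg.Agent.Lib.Helper6.CharP Cfsg.Agent.Lib.Helper6.Ores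

variable {X : Type*} [Group X] [Finite X] {p : ℕ} [hp : Fact p.Prime]

theorem pLayer_sup_core :
    Cfsg.pLayer p X ⊔ Cfsg.pPrimeCore p X = (Cfsg.layer (X ⧸ Cfsg.pPrimeCore p X)).comap (pr p X) := by
  rw [← map_pLayer, comap_map_pr]

theorem layer_normal (Y : Type*) [Group Y] [Finite Y] : (Cfsg.layer Y).Normal := by
  rw [layer_eq]
  exact normal_of_top_le_Nz (le_Nz_E ⊤)

theorem pLayer_sup_core_normal : (Cfsg.pLayer p X ⊔ Cfsg.pPrimeCore p X).Normal := by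
  rw [pLayer_sup_core]
  exact (layer_normal _).comap _

omit hp [Finite X] in
theorem pPrimePCore_normal : (Cfsg.pPrimePCore p X).Normal := by
  unfold Cfsg.pPrimePCore
  exact Subgroup.Normal.comap inferInstance _

omit hp [Finite X] in
theorem core_le_pPrimePCore : Cfsg.pPrimeCore p X ≤ Cfsg.pPrimePCore p X := by
  intro x hx
  unfold Cfsg.pPrimePCore
  rw [Subgroup.mem_comap]
  have : QuotientGroup.mk' (Cfsg.pPrimeCore p X) x = 1 := (QuotientGroup.eq_one_iff x).mpr hx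
  rw [this]
  exact Subgroup.one_mem _

theorem M_eq : Cfsg.pLayer p X ⊔ Cfsg.pPrimePCore p X =
    (Cfsg.pLayer p X ⊔ Cfsg.pPrimeCore p X) ⊔ Cfsg.pPrimePCore p X := by
  rw [sup_assoc, sup_eq_right.mpr core_le_pPrimePCore]

theorem M_normal : (Cfsg.pLayer p X ⊔ Cfsg.pPrimePCore p X).Normal := by
  rw [M_eq]
  have h1 := pLayer_sup_core_normal (X := X) (p := p)
  have h2 := pPrimePCore_normal (X := X) (p := p)
  exact Subgroup.sup_normal _ _

/-- `M = L_{p'} O_{p'} T` for a Sylow `p`-subgroup `T` of `M = L_{p'} O_{p',p}` -/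
theorem M_le {T : Subgroup X} (hT : Syl p T (Cfsg.pLayer p X ⊔ Cfsg.pPrimePCore p X)) :
    Cfsg.pLayer p X ⊔ Cfsg.pPrimePCore p X ≤ (Cfsg.pLayer p X ⊔ Cfsg.pPrimeCore p X) ⊔ T := by
  have h2 := pPrimePCore_normal (X := X) (p := p)
  have h3 : Syl p (T ⊓ Cfsg.pPrimePCore p X) (Cfsg.pPrimePCore p X) :=
    hT.inf_normal le_sup_right (le_Nz_of_normal h2 _)
  have h4 : Cfsg.pPrimeCore p X ⊔ (T ⊓ Cfsg.pPrimePCore p X) = Cfsg.pPrimePCore p X := by
    apply h3.sup_eq_of_pquot core_le_pPrimePCore (le_Nz_of_normal inferInstance _)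
    intro x hx
    have hx' : pr p X x ∈ Cfsg.pCore p (X ⧸ Cfsg.pPrimeCore p X) := hx
    obtain ⟨k, hk⟩ := (Cfsg.Agent.Lib.Helper1.pCore_isPGroup (G := X ⧸ Cfsg.pPrimeCore p X) p) ⟨_, hx'⟩
    refine ⟨k, ?_⟩
    have hk' : (pr p X x) ^ (p ^ k) = 1 := congrArg Subtype.val hk
    rw [← map_pow] at hk'
    exact (QuotientGroup.eq_one_iff _).mp hk'
  apply sup_le (le_sup_left.trans le_sup_left)
  rw [← h4]
  exact sup_le (le_sup_right.trans le_sup_left) (inf_le_left.trans le_sup_right)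

theorem cj_Op'_Cz (g : X) (T : Subgroup X) : cj g (Op' p (Cz T)) = Op' p (Cz (cj g T)) := by
  unfold Op'
  rw [cj_Rd (radClass_coprime p), cj_centralizer]

/-- all the cores `O(C(T))` lie in the subgroup generated using one of them -/
theorem Op'_Cz_le {T T₂ : Subgroup X} (hT : Syl p T (Cfsg.pLayer p X ⊔ Cfsg.pPrimePCore p X))
    (hT₂ : Syl p T₂ (Cfsg.pLayer p X ⊔ Cfsg.pPrimePCore p X)) :
    Op' p (Cz T₂) ≤ Cfsg.pLayer p X ⊔ Cfsg.pPrimeCore p X ⊔ Op' p (Cz T) := by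
  obtain ⟨m, hm, rfl⟩ := hT.conj hT₂
  have hn := pLayer_sup_core_normal (X := X) (p := p)
  obtain ⟨r, hr, t, ht, rfl⟩ := Subgroup.mem_sup_of_normal_left.mp (M_le hT hm)
  rw [← cj_Op'_Cz, ← cj_cj]
  have h1 : cj t (Op' p (Cz T)) = Op' p (Cz T) := by
    rw [cj_eq_self_iff]
    exact Nz_le_Nz_Op' p _ (Nz_le_Nz_Cz T (Subgroup.le_normalizer ht))
  rw [h1]
  calc cj r (Op' p (Cz T)) ≤ cj r (Cfsg.pLayer p X ⊔ Cfsg.pPrimeCore p X ⊔ Op' p (Cz T)) :=
        cj_mono le_sup_right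
    _ = _ := cj_eq_self_of_mem (Subgroup.mem_sup_left hr)

theorem ext_eq [Fact (Nat.Prime 2)] {T : Subgroup X}
    (hT : Syl 2 T (Cfsg.pLayer 2 X ⊔ Cfsg.pPrimePCore 2 X)) :
    Cfsg.extendedTwoLayer X = Cfsg.pLayer 2 X ⊔ Cfsg.oddCore X ⊔ Op' 2 (Cz T) := by
  unfold Cfsg.extendedTwoLayer
  apply le_antisymm
  · apply sup_le le_sup_left
    apply iSup_le
    intro T₂
    rw [map_pPrimeCore]
    exact Op'_Cz_le hT (syl_of_sylow' T₂)
  · apply sup_le le_sup_left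
    obtain ⟨P, hP⟩ := hT.exists_sylow'
    refine le_trans ?_ le_sup_right
    refine le_trans ?_ (le_iSup _ P)
    rw [map_pPrimeCore, hP]

end Cfsg.Agent.Lib.Helper9.PComp
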