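import Cfsg.Agent.Lib.Helper3.StrEmb
import Cfsg.Agent.Lib.Helper3.Invol2

set_option autoImplicit false

namespace Cfsg.Agent.Lib.Helper9.SE

open Cfsg.Agent.Lib.Helper3.Invol

variable {G : Type*} [Group G]

/-- Two distinct involutions either commute with a common involution, or are swapped by an
involution of the dihedral group they generate. -/
theorem invol_dichotomy [Finite G] {a b : G} (ha : orderOf a = 2) (hb : orderOf b = 2)
    (hne : a ≠ b) :
    (∃ z, orderOf z = 2 ∧ Commute z a ∧ Commute z b) ∨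
    (∃ i, orderOf i = 2 ∧ i * a * i⁻¹ = b ∧ ∀ e, Commute e a → Commute e b → Commute e i) := by
  have ha2 := sq_of_order ha
  have hb2 := sq_of_order hb
  rcases Nat.even_or_odd (orderOf (a * b)) with he | ho
  · left
    obtain ⟨m, hm⟩ := he
    rw [← two_mul] at hm
    have hpos : 0 < orderOf (a * b) := orderOf_pos _
    obtain ⟨hz, hza, hzb⟩ := central_invol ha hb (by omega) hm
    exact ⟨_, hz, hza, hzb⟩
  · right
    obtain ⟨k, hk⟩ := ho
    have h1 : (a * b) ^ (2 * (k : ℤ) + 1) = 1 := by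
      have : (2 * (k : ℤ) + 1) = ((2 * k + 1 : ℕ) : ℤ) := by push_cast; ring
      rw [this, zpow_natCast, ← hk, pow_orderOf_eq_one]
    have hconj : ((a * b) ^ (k : ℤ) * a) * a * ((a * b) ^ (k : ℤ) * a)⁻¹ = b := by
      have h2 : ((a * b) ^ (k : ℤ) * a) * a * ((a * b) ^ (k : ℤ) * a)⁻¹
          = (a * b) ^ (k : ℤ) * a * ((a * b) ^ (k : ℤ))⁻¹ := by
        rw [mul_inv_rev]; group
      rw [h2, zpow_conj_x ha2 hb2]
      have h3 : (a * b) ^ (2 * (k : ℤ)) = (a * b)⁻¹ := by
        rw [zpow_add, zpow_one] at h1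
        exact eq_inv_of_mul_eq_one_left h1
      rw [h3, mul_inv_rev, inv_mul_cancel_right, inv_of_order hb]
    refine ⟨(a * b) ^ (k : ℤ) * a, ?_, hconj, ?_⟩
    · rw [order_two_iff]
      constructor
      · intro h
        rw [h] at hconj
        apply hne
        simpa using hconj
      · rw [mul_assoc, ← mul_assoc a, x_mul_zpow ha2 hb2, mul_assoc, ha2, mul_one, ← zpow_add]
        simp
    · intro e hea heb
      exact ((hea.mul_right heb).zpow_right _).mul_right hea

/-- element form of strong embedding -/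
structure SEmb (H : Subgroup G) : Prop where
  ne_top : H ≠ ⊤
  even : Even (Nat.card H)
  mem : ∀ g t : G, t ∈ H → orderOf t = 2 → g * t * g⁻¹ ∈ H → g ∈ H

theorem sEmb_iff [Finite G] (H : Subgroup G) : Cfsg.IsStronglyEmbedded H ↔ SEmb H :=
  (se_iff H).trans ⟨fun h => ⟨h.1, h.2.1, h.2.2⟩, fun h => ⟨h.1, h.2, h.3⟩⟩

namespace SEmb

variable [Finite G] {H : Subgroup G}

set_option linter.unusedSectionVars false

theorem exists_invol (h : SEmb H) : ∃ t ∈ H, orderOf t = 2 := by
  obtain ⟨x, hx⟩ := exists_prime_orderOf_dvd_card' (G := H) 2 h.even.two_dvd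
  exact ⟨x.1, x.2, by rw [← hx, Subgroup.orderOf_coe]⟩

theorem mem_of_commute (h : SEmb H) {t c : G} (ht : t ∈ H) (h2 : orderOf t = 2)
    (hc : Commute c t) : c ∈ H := by
  apply h.mem c t ht h2
  rw [hc.eq, mul_inv_cancel_right]
  exact ht

/-- conjugate by `g ∉ H` of an involution of `H` is outside `H` -/
theorem conj_not_mem (h : SEmb H) {g t : G} (hg : g ∉ H) (ht : t ∈ H) (h2 : orderOf t = 2) :
    g * t * g⁻¹ ∉ H := fun hh => hg (h.mem g t ht h2 hh)

/-- an involution in `H` and one in a different conjugate of `H`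
are swapped by a canonical involution. -/
theorem exists_swap (h : SEmb H) {g t s : G} (hg : g ∉ H) (ht : t ∈ H) (h2 : orderOf t = 2)
    (hs : s ∈ H) (hs2 : orderOf s = 2) :
    ∃ i, orderOf i = 2 ∧ i * t * i⁻¹ = g * s * g⁻¹ ∧
      ∀ e, Commute e t → Commute e (g * s * g⁻¹) → Commute e i := by
  have hs' : orderOf (g * s * g⁻¹) = 2 := by rw [order_conj, hs2]
  have hne : t ≠ g * s * g⁻¹ := fun hh => h.conj_not_mem hg hs hs2 (hh ▸ ht)
  rcases invol_dichotomy h2 hs' hne with ⟨z, hz, hzt, hzs⟩ | hi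
  · exfalso
    have hzH : z ∈ H := h.mem_of_commute ht h2 hzt
    -- g⁻¹ z g commutes with s
    have h1 : Commute (g⁻¹ * z * g) s := by
      have := hzs.eq
      show g⁻¹ * z * g * s = s * (g⁻¹ * z * g)
      have h3 : z * g * s = g * s * g⁻¹ * z * g := by
        calc z * g * s = z * (g * s * g⁻¹) * g := by group
          _ = g * s * g⁻¹ * z * g := by rw [this]
      calc g⁻¹ * z * g * s = g⁻¹ * (z * g * s) := by group
        _ = g⁻¹ * (g * s * g⁻¹ * z * g) := by rw [h3]
        _ = s * (g⁻¹ * z * g) := by group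
    have h4 : g⁻¹ * z * g ∈ H := h.mem_of_commute hs hs2 h1
    have h5 : g⁻¹ ∈ H := h.mem g⁻¹ z hzH hz (by simpa using h4)
    exact hg (by simpa using H.inv_mem h5)
  · exact hi

/-- The key bijection: involutions in the coset `gH` (`g ∉ H`) correspond to the involutions
of `H` via `i ↦ i (g s g⁻¹) i⁻¹`. -/
theorem psi_mem (h : SEmb H) {g s i : G} (hs : s ∈ H) (hi : orderOf i = 2)
    (hgi : g⁻¹ * i ∈ H) : i * (g * s * g⁻¹) * i⁻¹ ∈ H := by
  have hii := inv_of_order hi
  have : i * (g * s * g⁻¹) * i⁻¹ = (g⁻¹ * i)⁻¹ * s * (g⁻¹ * i) := by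
    have h1 : (g⁻¹ * i)⁻¹ * s * (g⁻¹ * i) = i⁻¹ * (g * s * g⁻¹) * i := by group
    rw [h1, hii]
  rw [this]
  exact H.mul_mem (H.mul_mem (H.inv_mem hgi) hs) hgi

theorem psi_surj (h : SEmb H) {g s t : G} (hg : g ∉ H) (hs : s ∈ H) (hs2 : orderOf s = 2)
    (ht : t ∈ H) (ht2 : orderOf t = 2) :
    ∃ i, orderOf i = 2 ∧ g⁻¹ * i ∈ H ∧ i * (g * s * g⁻¹) * i⁻¹ = t := by
  obtain ⟨i, hi, hit, -⟩ := h.exists_swap hg ht ht2 hs hs2
  have hii := inv_of_order hi
  refine ⟨i, hi, ?_, ?_⟩
  · apply h.mem (g⁻¹ * i) t ht ht2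
    have : g⁻¹ * i * t * (g⁻¹ * i)⁻¹ = g⁻¹ * (i * t * i⁻¹) * g := by group
    rw [this, hit]
    have : g⁻¹ * (g * s * g⁻¹) * g = s := by group
    rw [this]; exact hs
  · rw [← hit, hii]
    have hi2 := sq_of_order hi
    calc i * (i * t * i) * i = (i * i) * t * (i * i) := by group
      _ = t := by rw [hi2]; simp

/-- uniqueness: an involution `i ∈ gH` with `i (g s g⁻¹) i⁻¹ = t` is the canonical one. -/
theorem psi_inj (h : SEmb H) {g s i i' : G} (hg : g ∉ H) (hs : s ∈ H) (hs2 : orderOf s = 2)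
    (hi : orderOf i = 2) (hgi : g⁻¹ * i ∈ H) (hi' : orderOf i' = 2) (hgi' : g⁻¹ * i' ∈ H)
    (heq : i * (g * s * g⁻¹) * i⁻¹ = i' * (g * s * g⁻¹) * i'⁻¹) : i = i' := by
  -- it suffices to compare with the canonical one
  have key : ∀ (j j0 t : G), orderOf j = 2 → g⁻¹ * j ∈ H → t ∈ H → orderOf t = 2 →
      j * (g * s * g⁻¹) * j⁻¹ = t → orderOf j0 = 2 → j0 * t * j0⁻¹ = g * s * g⁻¹ →
      (∀ e, Commute e t → Commute e (g * s * g⁻¹) → Commute e j0) → j = j0 := by
    intro j j0 t hj hgj ht ht2 hjt hj0 hj0t hcomm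
    set s' := g * s * g⁻¹ with hs'
    have hjj := inv_of_order hj
    have hj2 := sq_of_order hj
    have hj0j := inv_of_order hj0
    have hj02 := sq_of_order hj0
    rw [hjj] at hjt
    rw [hj0j] at hj0t
    have hjt' : j * t * j = s' := by
      rw [← hjt]
      calc j * (j * s' * j) * j = (j * j) * s' * (j * j) := by group
        _ = s' := by rw [hj2]; simp
    have hj0t' : j0 * s' * j0 = t := by
      rw [← hj0t]
      calc j0 * (j0 * t * j0) * j0 = (j0 * j0) * t * (j0 * j0) := by group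
        _ = t := by rw [hj02]; simp
    -- e = j0 * j commutes with s' and t
    have he1 : Commute (j0 * j) t := by
      show j0 * j * t = t * (j0 * j)
      calc j0 * j * t = j0 * (j * t * j) * j := by
            simp only [mul_assoc, hj2, mul_one]
        _ = j0 * s' * j := by rw [hjt']
        _ = (j0 * s' * j0) * (j0 * j) := by
            simp only [mul_assoc]
            rw [← mul_assoc j0 j0, hj02, one_mul]
        _ = t * (j0 * j) := by rw [hj0t']
    have he2 : Commute (j0 * j) s' := by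
      show j0 * j * s' = s' * (j0 * j)
      calc j0 * j * s' = j0 * (j * s' * j) * j := by
            simp only [mul_assoc, hj2, mul_one]
        _ = j0 * t * j := by rw [hjt]
        _ = (j0 * t * j0) * (j0 * j) := by
            simp only [mul_assoc]
            rw [← mul_assoc j0 j0, hj02, one_mul]
        _ = s' * (j0 * j) := by rw [hj0t]
    have he3 : Commute (j0 * j) j0 := hcomm _ he1 he2
    -- hence (j0 j)^2 = 1
    have hsq : (j0 * j) * (j0 * j) = 1 := by
      have h1 : j0 * j * j0 = j := by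
        have := he3.eq
        rw [this, ← mul_assoc, hj02, one_mul]
      rw [← mul_assoc, h1, hj2]
    by_contra hne
    have hne1 : j0 * j ≠ 1 := by
      intro h1
      apply hne
      have : j = j0⁻¹ := eq_inv_of_mul_eq_one_right h1
      rw [this, hj0j]
    have ho : orderOf (j0 * j) = 2 := order_two_iff.2 ⟨hne1, hsq⟩
    have heH : j0 * j ∈ H := h.mem_of_commute ht ht2 he1
    have h1 : Commute (g⁻¹ * (j0 * j) * g) s := by
      have := he2.eq
      show g⁻¹ * (j0 * j) * g * s = s * (g⁻¹ * (j0 * j) * g)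
      have h3 : (j0 * j) * g * s = g * s * g⁻¹ * (j0 * j) * g := by
        calc (j0 * j) * g * s = (j0 * j) * (g * s * g⁻¹) * g := by group
          _ = g * s * g⁻¹ * (j0 * j) * g := by rw [← hs', this]
      calc g⁻¹ * (j0 * j) * g * s = g⁻¹ * ((j0 * j) * g * s) := by group
        _ = g⁻¹ * (g * s * g⁻¹ * (j0 * j) * g) := by rw [h3]
        _ = s * (g⁻¹ * (j0 * j) * g) := by group
    have h4 : g⁻¹ * (j0 * j) * g ∈ H := h.mem_of_commute hs hs2 h1
    have h5 : g⁻¹ ∈ H := h.mem g⁻¹ (j0 * j) heH ho (by simpa using h4)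
    exact hg (by simpa using H.inv_mem h5)
  have htH : i * (g * s * g⁻¹) * i⁻¹ ∈ H := h.psi_mem hs hi hgi
  have ht2 : orderOf (i * (g * s * g⁻¹) * i⁻¹) = 2 := by rw [order_conj, order_conj, hs2]
  obtain ⟨j0, hj0, hj0t, hc⟩ := h.exists_swap hg htH ht2 hs hs2
  rw [key i j0 _ hi hgi htH ht2 rfl hj0 hj0t hc, key i' j0 _ hi' hgi' htH ht2 heq.symm hj0 hj0t hc]

/-- number of involutions in a nontrivial coset -/
theorem card_coset_invol (h : SEmb H) {g : G} (hg : g ∉ H) :
    Nat.card {i : G // orderOf i = 2 ∧ g⁻¹ * i ∈ H} = Nat.card {t : G // orderOf t = 2 ∧ t ∈ H} := by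
  obtain ⟨s, hs, hs2⟩ := h.exists_invol
  refine Nat.card_congr (Equiv.ofBijective
    (fun i => ⟨i.1 * (g * s * g⁻¹) * i.1⁻¹, by rw [order_conj, order_conj, hs2],
      h.psi_mem hs i.2.1 i.2.2⟩) ⟨?_, ?_⟩)
  · rintro ⟨i, hi, hgi⟩ ⟨i', hi', hgi'⟩ heq
    have := congrArg Subtype.val heq
    exact Subtype.ext (h.psi_inj hg hs hs2 hi hgi hi' hgi' this)
  · rintro ⟨t, ht2, ht⟩
    obtain ⟨i, hi, hgi, hit⟩ := h.psi_surj hg hs hs2 ht ht2
    exact ⟨⟨i, hi, hgi⟩, Subtype.ext hit⟩

end SEmb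

end Cfsg.Agent.Lib.Helper9.SE
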