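import Mathlib
import Cfsg.Agent.Lib.Helper9.Sig

set_option autoImplicit false
open Pointwise
open scoped commutatorElement

namespace Cfsg.Agent.Lib.Helper9.Sig

open Cfsg.Agent.Lib.Helper1 Cfsg.Agent.Lib.Helper3.CopGen

universe u
variable {G : Type u} [Group G] {p : ℕ} {A : Subgroup G} {θ : G → Subgroup G}

theorem mem_sInf_iff {B : Subgroup G} {c : G} :
    c ∈ Cfsg.signalizerInf B θ ↔ ∀ a ∈ B, a ≠ 1 → c ∈ θ a := by
  unfold Cfsg.signalizerInf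
  rw [Subgroup.mem_iInf]
  constructor
  · intro h a ha ha1; exact h ⟨a, ha, ha1⟩
  · rintro h ⟨a, ha, ha1⟩; exact h a ha ha1

theorem SF.sInf_le_cz (h : SF p A θ) {B : Subgroup G} (hB : B ≤ A) :
    Cfsg.signalizerInf B θ ≤ Subgroup.centralizer (B : Set G) := by
  intro c hc
  rw [Subgroup.mem_centralizer_iff]
  intro a ha
  by_cases ha1 : a = 1
  · simp [ha1]
  · have := h.le a (hB ha) ha1 (mem_sInf_iff.mp hc a ha ha1)
    exact Subgroup.mem_centralizer_iff.mp this a rfl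

theorem Fam.cz_le_sInf {U : Subgroup G} (hU : Fam p A θ U) {B : Subgroup G} (hB : B ≤ A) :
    U ⊓ Subgroup.centralizer (B : Set G) ≤ Cfsg.signalizerInf B θ := by
  intro c hc
  rw [mem_sInf_iff]
  intro a ha ha1
  exact hU.cen a (hB ha) ha1 ⟨hc.1, Subgroup.centralizer_le (Set.singleton_subset_iff.mpr ha) hc.2⟩

theorem Fam.conj [Finite G] (h : SF p A θ) {U : Subgroup G} (hU : Fam p A θ U) {c : G}
    (hc : c ∈ Cfsg.signalizerInf A θ) : Fam p A θ (MulAut.conj c • U) := by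
  have hcA := h.sInf_le_cz le_rfl hc
  refine ⟨?_, ?_, ?_, ?_⟩
  · have := hU.solv
    exact Group.isSolvable_of_surjective (f := (Subgroup.equivSMul (MulAut.conj c) U).toMonoidHom)
      (Subgroup.equivSMul (MulAut.conj c) U).surjective
  · rw [card_conj_smul]; exact hU.cop
  · intro b hb
    apply mem_normalizer_of_conj_smul_eq
    rw [conj_smul_smul, Subgroup.mem_centralizer_iff.mp hcA b hb, ← conj_smul_smul,
      conj_smul_eq_of_mem_normalizer (hU.inv hb)]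
  · intro a ha ha1 x hx
    have hca : a * c = c * a := Subgroup.mem_centralizer_iff.mp hcA a ha
    have hxa : a * x = x * a := Subgroup.mem_centralizer_iff.mp hx.2 a rfl
    have h1 : c⁻¹ * x * c ∈ U := mem_conj_smul.mp hx.1
    have h2 : c⁻¹ * x * c ∈ Subgroup.centralizer {a} := by
      rw [Subgroup.mem_centralizer_iff]
      intro b hb
      rw [show b = a from hb]
      have e1 : a * c⁻¹ = c⁻¹ * a := by
        have : c⁻¹ * (a * c) * c⁻¹ = c⁻¹ * (c * a) * c⁻¹ := by rw [hca]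
        simpa [mul_assoc] using this.symm
      calc a * (c⁻¹ * x * c) = (a * c⁻¹) * x * c := by group
        _ = c⁻¹ * (a * x) * c := by rw [e1]; group
        _ = c⁻¹ * x * (a * c) := by rw [hxa]; group
        _ = c⁻¹ * x * c * a := by rw [hca]; group
    have h3 := hU.cen a ha ha1 ⟨h1, h2⟩
    have h4 := mem_sInf_iff.mp hc a ha ha1
    have : x = c * (c⁻¹ * x * c) * c⁻¹ := by group
    rw [this]
    exact (θ a).mul_mem ((θ a).mul_mem h4 h3) ((θ a).inv_mem h4)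

/-- maximal `q`-members of the family -/
def MaxQ (p : ℕ) (A : Subgroup G) (θ : G → Subgroup G) (q : ℕ) (Q : Subgroup G) : Prop :=
  Fam p A θ Q ∧ IsPGroup q Q ∧ ∀ R, Fam p A θ R → IsPGroup q R → Q ≤ R → R = Q

theorem exists_maxQ [Finite G] {q : ℕ} {R : Subgroup G} (hR : Fam p A θ R) (hq : IsPGroup q R) :
    ∃ Q, MaxQ p A θ q Q ∧ R ≤ Q := by
  obtain ⟨Q, hRQ, hQ⟩ := Set.Finite.exists_le_maximal
    (s := {Q : Subgroup G | Fam p A θ Q ∧ IsPGroup q Q}) (Set.toFinite _) ⟨hR, hq⟩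
  exact ⟨Q, ⟨hQ.prop.1, hQ.prop.2, fun S hS hSq hle => le_antisymm (hQ.le_of_ge ⟨hS, hSq⟩ hle) hle⟩,
    hRQ⟩

theorem isPGroup_conj {q : ℕ} {Q : Subgroup G} (hQ : IsPGroup q Q) (c : G) :
    IsPGroup q (MulAut.conj c • Q : Subgroup G) :=
  hQ.of_equiv (Subgroup.equivSMul (MulAut.conj c) Q)

theorem MaxQ.conj [Finite G] (h : SF p A θ) {q : ℕ} {Q : Subgroup G} (hQ : MaxQ p A θ q Q) {c : G}
    (hc : c ∈ Cfsg.signalizerInf A θ) : MaxQ p A θ q (MulAut.conj c • Q) := by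
  refine ⟨hQ.1.conj h hc, isPGroup_conj hQ.2.1 c, ?_⟩
  intro R hR hRq hle
  have h1 := hQ.2.2 (MulAut.conj c⁻¹ • R) (hR.conj h (Subgroup.inv_mem _ hc)) (isPGroup_conj hRq _)
    (by
      have := Subgroup.pointwise_smul_le_pointwise_smul_iff (a := MulAut.conj c⁻¹).mpr hle
      rwa [conj_smul_smul, inv_mul_cancel, map_one, one_smul] at this)
  rw [← h1, conj_smul_smul, mul_inv_cancel, map_one, one_smul]

/-- conjugacy under the intersection of the `θ a` -/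
def CJ (A : Subgroup G) (θ : G → Subgroup G) (Q Q' : Subgroup G) : Prop :=
  ∃ c ∈ Cfsg.signalizerInf A θ, MulAut.conj c • Q = Q'

theorem CJ.refl (Q : Subgroup G) : CJ A θ Q Q := ⟨1, Subgroup.one_mem _, by simp⟩

theorem CJ.symm {Q Q' : Subgroup G} (h : CJ A θ Q Q') : CJ A θ Q' Q := by
  obtain ⟨c, hc, rfl⟩ := h
  exact ⟨c⁻¹, Subgroup.inv_mem _ hc, by rw [conj_smul_smul, inv_mul_cancel, map_one, one_smul]⟩

theorem CJ.trans {Q Q' Q'' : Subgroup G} (h : CJ A θ Q Q') (h' : CJ A θ Q' Q'') : CJ A θ Q Q'' := by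
  obtain ⟨c, hc, rfl⟩ := h
  obtain ⟨d, hd, rfl⟩ := h'
  exact ⟨d * c, Subgroup.mul_mem _ hd hc, by rw [conj_smul_smul]⟩

theorem transitivity_aux [Finite G] [hp : Fact p.Prime] (hA : Cfsg.IsElementaryAbelian p A)
    (hA3 : p ^ 3 ≤ Nat.card A) (h : SF p A θ) {q : ℕ} [Fact q.Prime] (n : ℕ) :
    ∀ Q₁ Q₂ : Subgroup G, MaxQ p A θ q Q₁ → MaxQ p A θ q Q₂ →
      Nat.card G - Nat.card (Q₁ ⊓ Q₂ : Subgroup G) = n → CJ A θ Q₁ Q₂ := by
  induction n using Nat.strong_induction_on with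
  | _ n ih =>
  intro Q₁ Q₂ h₁ h₂ hn
  have hAp := ea_pGroup hA
  by_cases hD₁ : Q₁ ⊓ Q₂ = Q₁
  · have := h₁.2.2 Q₂ h₂.1 h₂.2.1 (inf_eq_left.mp hD₁)
    rw [this]; exact CJ.refl _
  by_cases hD₂ : Q₁ ⊓ Q₂ = Q₂
  · have := h₂.2.2 Q₁ h₁.1 h₁.2.1 (inf_eq_right.mp hD₂)
    rw [this]; exact CJ.refl _
  obtain ⟨a, ha, ha1, hn₁, hn₂⟩ := two_q_groups hA hA3 h₁.2.1 h₂.2.1 h₁.1.cop h₂.1.cop
    h₁.1.inv h₂.1.inv hD₁ hD₂
  set D := Q₁ ⊓ Q₂ with hD
  have hAD : A ≤ Subgroup.normalizer (D : Set G) := le_normalizer_inf h₁.1.inv h₂.1.inv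
  have hDf : Fam p A θ D := h₁.1.of_le inf_le_left hAD
  set M := θ a ⊓ Subgroup.normalizer (D : Set G) with hM
  have hMf : Fam p A θ M := (h.fam ha ha1).of_le inf_le_left
    (le_normalizer_inf (h.inv a ha ha1) (le_Nz_Nz hAD))
  have hHf : Fam p A θ (D ⊔ M) := hDf.sup hAp hMf inf_le_right
  set H := D ⊔ M with hH
  have hcopH := cop_of hAp hHf.cop
  -- the step for each `Q_i`
  have step : ∀ Q : Subgroup G, MaxQ p A θ q Q → D ≤ Q →
      ¬ (Subgroup.normalizer (D : Set G) ⊓ Q ⊓ Subgroup.centralizer {a} ≤ D) →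
      ∃ S Q' : Subgroup G, S ≤ H ∧ Nat.card S = q ^ (Nat.card H).factorization q ∧
        A ≤ Subgroup.normalizer (S : Set G) ∧ D < S ∧ MaxQ p A θ q Q' ∧ S ≤ Q' ∧
        D < Q ⊓ Q' := by
    intro Q hQ hDQ hnle
    have hTlt : D < Q ⊓ H := by
      refine lt_of_le_of_ne (le_inf hDQ le_sup_left) ?_
      intro he
      apply hnle
      intro x hx
      exact he.ge ⟨hx.1.2, le_sup_right (a := D) ⟨hQ.1.cen a ha ha1 ⟨hx.1.2, hx.2⟩, hx.1.1⟩⟩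
    obtain ⟨S, hSH, hSc, hSA, hTS⟩ := exists_invariant_sylow_ge A H hHf.inv hcopH (Or.inr hHf.solv) q
      (Q ⊓ H) inf_le_right (hQ.2.1.to_le inf_le_left) (le_normalizer_inf hQ.1.inv hHf.inv)
    obtain ⟨Q', hQ', hSQ'⟩ := exists_maxQ (hHf.of_le hSH hSA) (IsPGroup.of_card hSc)
    exact ⟨S, Q', hSH, hSc, hSA, lt_of_lt_of_le hTlt hTS, hQ', hSQ',
      lt_of_lt_of_le hTlt (le_inf inf_le_left (hTS.trans hSQ'))⟩
  obtain ⟨S₁, Q₁', hS₁H, hS₁c, hS₁A, hDS₁, hQ₁', hSQ₁, hlt₁⟩ := step Q₁ h₁ inf_le_left hn₁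
  obtain ⟨S₂, Q₂', hS₂H, hS₂c, hS₂A, hDS₂, hQ₂', hSQ₂, hlt₂⟩ := step Q₂ h₂ inf_le_right hn₂
  obtain ⟨c, hc, hcS⟩ := invariant_sylow_conj A H hHf.inv hcopH (Or.inr hHf.solv) q S₁ S₂ hS₁H hS₂H
    hS₁c hS₂c hS₁A hS₂A
  have hcI : c ∈ Cfsg.signalizerInf A θ := hHf.cz_le_sInf le_rfl hc
  have use : ∀ R R' : Subgroup G, MaxQ p A θ q R → MaxQ p A θ q R' → D < R ⊓ R' → CJ A θ R R' := by
    intro R R' hR hR' hlt
    refine ih (Nat.card G - Nat.card (R ⊓ R' : Subgroup G)) ?_ R R' hR hR' rfl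
    have h1 : Nat.card D < Nat.card (R ⊓ R' : Subgroup G) := Cfsg.Agent.Lib.Helper6.Quasi.card_lt_of_lt hlt
    have h2 : Nat.card (R ⊓ R' : Subgroup G) ≤ Nat.card G := Subgroup.card_le_card_group _
    omega
  have e1 := use Q₁ Q₁' h₁ hQ₁' hlt₁
  have e2 := use Q₂ Q₂' h₂ hQ₂' hlt₂
  have e3 : CJ A θ (MulAut.conj c • Q₁') Q₂' := by
    apply use _ _ (hQ₁'.conj h hcI) hQ₂'
    refine lt_of_lt_of_le hDS₂ (le_inf ?_ hSQ₂)
    rw [← hcS]
    exact Subgroup.pointwise_smul_le_pointwise_smul_iff.mpr hSQ₁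
  have e4 : CJ A θ Q₁' (MulAut.conj c • Q₁') := ⟨c, hcI, rfl⟩
  exact e1.trans (e4.trans (e3.trans e2.symm))

theorem transitivity [Finite G] [Fact p.Prime] (hA : Cfsg.IsElementaryAbelian p A)
    (hA3 : p ^ 3 ≤ Nat.card A) (h : SF p A θ) {q : ℕ} [Fact q.Prime] {Q₁ Q₂ : Subgroup G}
    (h₁ : MaxQ p A θ q Q₁) (h₂ : MaxQ p A θ q Q₂) : CJ A θ Q₁ Q₂ :=
  transitivity_aux hA hA3 h _ Q₁ Q₂ h₁ h₂ rfl

end Cfsg.Agent.Lib.Helper9.Sig
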