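import Mathlib
import Cfsg.Agent.Lib.Helper9.Sig2

set_option autoImplicit false
open Pointwise
open scoped commutatorElement

namespace Cfsg.Agent.Lib.Helper9.Sig

open Cfsg.Agent.Lib.Helper1 Cfsg.Agent.Lib.Helper3.CopGen

universe u
variable {G : Type u} [Group G] {p : ℕ} {A : Subgroup G} {θ : G → Subgroup G}

/-- `S` is a Sylow `q`-subgroup of `H` (cardinality form) -/
def SylC (q : ℕ) (S H : Subgroup G) : Prop :=
  S ≤ H ∧ Nat.card S = q ^ (Nat.card H).factorization q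

theorem SylC.exists_sylow [Finite G] {q : ℕ} [Fact q.Prime] {S H : Subgroup G} (h : SylC q S H) :
    ∃ P : Sylow q ↥H, (P : Subgroup ↥H).map H.subtype = S := by
  refine ⟨Sylow.ofCard (S.subgroupOf H) (by rw [card_subgroupOf h.1, h.2]), ?_⟩
  rw [Sylow.coe_ofCard, Subgroup.subgroupOf_map_subtype, inf_eq_left.mpr h.1]

theorem SylC.eq_of_le [Finite G] {q : ℕ} [hq : Fact q.Prime] {S T H : Subgroup G} (h : SylC q S H)
    (hST : S ≤ T) (hTH : T ≤ H) (hT : IsPGroup q T) : T = S := by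
  symm
  apply Subgroup.eq_of_le_of_card_ge hST
  obtain ⟨k, hk⟩ := IsPGroup.iff_card.mp hT
  rw [h.2, hk]
  apply Nat.pow_le_pow_right hq.out.pos
  apply (hq.out.pow_dvd_iff_le_factorization Nat.card_pos.ne').mp
  rw [← hk]
  exact Subgroup.card_dvd_of_le hTH

theorem MaxQ.meets [Finite G] [Fact p.Prime] (hA : Cfsg.IsElementaryAbelian p A)
    (hA3 : p ^ 3 ≤ Nat.card A) (h : SF p A θ) {q : ℕ} [Fact q.Prime] {Q : Subgroup G}
    (hQ : MaxQ p A θ q Q) {H : Subgroup G} (hH : Fam p A θ H) :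
    ∃ c ∈ Cfsg.signalizerInf A θ, SylC q (MulAut.conj c • Q ⊓ H) H := by
  obtain ⟨S, hSH, hSc, hSA⟩ := exists_invariant_sylow A H hH.inv (cop_of (ea_pGroup hA) hH.cop)
    (Or.inr hH.solv) q
  obtain ⟨Q', hQ', hSQ'⟩ := exists_maxQ (hH.of_le hSH hSA) (IsPGroup.of_card hSc)
  obtain ⟨c, hc, rfl⟩ := transitivity hA hA3 h hQ hQ'
  refine ⟨c, hc, ?_⟩
  have hS : SylC q S H := ⟨hSH, hSc⟩
  rw [hS.eq_of_le (le_inf hSQ' hSH) inf_le_right (hQ'.2.1.to_le inf_le_left)]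
  exact hS

theorem SF.sInf_inv (h : SF p A θ) {B : Subgroup G} (hB : B ≤ A) :
    A ≤ Subgroup.normalizer ((Cfsg.signalizerInf B θ : Subgroup G) : Set G) := by
  intro a ha
  rw [Subgroup.mem_normalizer_iff]
  intro x
  rw [mem_sInf_iff, mem_sInf_iff]
  constructor
  · intro hx b hb hb1
    exact (Subgroup.mem_normalizer_iff.mp (h.inv b (hB hb) hb1 ha) x).mp (hx b hb hb1)
  · intro hx b hb hb1
    exact (Subgroup.mem_normalizer_iff.mp (h.inv b (hB hb) hb1 ha) x).mpr (hx b hb hb1)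

theorem SF.sInf_fam [Finite G] (h : SF p A θ) {B : Subgroup G} (hB : B ≤ A) (hB1 : B ≠ ⊥) :
    Fam p A θ (Cfsg.signalizerInf B θ) := by
  obtain ⟨⟨b, hb⟩, hb1⟩ := Subgroup.ne_bot_iff_exists_ne_one.mp hB1
  have hb1' : (b : G) ≠ 1 := fun hh => hb1 (Subtype.ext hh)
  exact (h.fam (hB hb) hb1').of_le (fun x hx => mem_sInf_iff.mp hx b hb hb1') (h.sInf_inv hB)

theorem sInf_mono {B C : Subgroup G} (hBC : B ≤ C) :
    Cfsg.signalizerInf C θ ≤ Cfsg.signalizerInf B θ := by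
  intro x hx
  rw [mem_sInf_iff] at hx ⊢
  exact fun a ha ha1 => hx a (hBC ha) ha1

theorem MaxQ.cz_syl [Finite G] [Fact p.Prime] (hA : Cfsg.IsElementaryAbelian p A)
    (hA3 : p ^ 3 ≤ Nat.card A) (h : SF p A θ) {q : ℕ} [Fact q.Prime] {Q : Subgroup G}
    (hQ : MaxQ p A θ q Q) {B : Subgroup G} (hB : B ≤ A) (hB1 : B ≠ ⊥) :
    SylC q (Q ⊓ Subgroup.centralizer (B : Set G)) (Cfsg.signalizerInf B θ) := by
  obtain ⟨c, hc, hS⟩ := hQ.meets hA hA3 h (h.sInf_fam hB hB1)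
  have hcH : c ∈ Cfsg.signalizerInf B θ := sInf_mono hB hc
  have e1 : Q ⊓ Subgroup.centralizer (B : Set G) = Q ⊓ Cfsg.signalizerInf B θ := by
    apply le_antisymm
    · exact le_inf inf_le_left (hQ.1.cz_le_sInf hB)
    · exact inf_le_inf_left _ (h.sInf_le_cz hB)
  rw [e1]
  refine ⟨inf_le_right, ?_⟩
  rw [← hS.2, ← card_conj_smul c (Q ⊓ Cfsg.signalizerInf B θ), Subgroup.smul_inf,
    conj_smul_eq_of_mem_normalizer (Subgroup.le_normalizer hcH)]

theorem SF.sInf_zpowers (h : SF p A θ) {a : G} (ha : a ∈ A) (ha1 : a ≠ 1) :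
    Cfsg.signalizerInf (Subgroup.zpowers a) θ = θ a := by
  apply le_antisymm
  · intro x hx
    exact mem_sInf_iff.mp hx a (Subgroup.mem_zpowers a) ha1
  · intro x hx
    rw [mem_sInf_iff]
    intro b hb hb1
    apply h.bal a ha ha1 b (Subgroup.zpowers_le.mpr ha hb) hb1
    refine ⟨hx, ?_⟩
    have h1 := h.le a ha ha1 hx
    rw [← cz_zpowers] at h1
    exact Subgroup.centralizer_le (Set.singleton_subset_iff.mpr hb) h1

theorem complete_of_single [Finite G] [Fact p.Prime] (hA : Cfsg.IsElementaryAbelian p A)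
    (hA3 : p ^ 3 ≤ Nat.card A) (h : SF p A θ) {q : ℕ} [hq : Fact q.Prime]
    (hθq : ∀ a ∈ A, a ≠ 1 → IsPGroup q (θ a)) :
    ∃ X, Fam p A θ X ∧ ∀ a ∈ A, a ≠ 1 → X ⊓ Subgroup.centralizer {a} = θ a := by
  obtain ⟨Q, hQ, -⟩ := exists_maxQ (p := p) (A := A) (θ := θ) (q := q) fam_bot IsPGroup.of_bot
  refine ⟨Q, hQ.1, ?_⟩
  intro a ha ha1
  have h1 := hQ.cz_syl hA hA3 h (Subgroup.zpowers_le.mpr ha)
    (by rw [Ne, Subgroup.zpowers_eq_bot]; exact ha1)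
  rw [h.sInf_zpowers ha ha1, cz_zpowers] at h1
  exact (h1.eq_of_le h1.1 le_rfl (hθq a ha ha1)).symm

end Cfsg.Agent.Lib.Helper9.Sig
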