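import Mathlib
import Cfsg.Agent.S0529

set_option autoImplicit false
set_option linter.unusedSectionVars false

/-! Sylow towers of supersolvable type, detected by counting elements by order. -/

namespace Cfsg.Agent.Lib.Helper9.Tower

open Cfsg.Agent.Lib.Helper2.Supersolvable Cfsg.Agent.Lib.Helper1

universe u v

/-- elements all of whose prime divisors of the order exceed `t` -/
def AA (t : ℕ) (X : Type u) [Group X] : Set X := {x | ∀ q : ℕ, q.Prime → q ∣ orderOf x → t < q}

/-- the counting form of the Sylow tower property -/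
def Tw (X : Type u) [Group X] : Prop :=
  ∀ t : ℕ, ∃ d e : ℕ, Nat.card X = d * e ∧ (∀ q : ℕ, q.Prime → q ∣ d → t < q) ∧
    (∀ q : ℕ, q.Prime → q ∣ e → q ≤ t) ∧ Nat.card (AA t X) = d

variable {X : Type u} [Group X]

theorem AA_eq_preimage [Finite X] {p t : ℕ} [hp : Fact p.Prime] (N : Subgroup X) [N.Normal]
    (hN : IsPGroup p N) (ht : t < p) :
    AA t X = (QuotientGroup.mk : X → X ⧸ N) ⁻¹' (AA t (X ⧸ N)) := by
  ext x
  simp only [AA, Set.mem_ofPred_eq, Set.mem_preimage]
  constructor
  · intro h q hq hd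
    exact h q hq (hd.trans (orderOf_map_dvd (QuotientGroup.mk' N) x))
  · intro h q hq hd
    have h1 : x ^ orderOf (x : X ⧸ N) ∈ N := by
      rw [← QuotientGroup.eq_one_iff, QuotientGroup.mk_pow, pow_orderOf_eq_one]
    have h2 : orderOf x ∣ orderOf (x : X ⧸ N) * Nat.card N := by
      apply orderOf_dvd_of_pow_eq_one
      rw [pow_mul]
      have := pow_card_eq_one' (G := N) (x := ⟨_, h1⟩)
      exact congrArg Subtype.val this
    rcases (hq.dvd_mul).mp (hd.trans h2) with h3 | h3
    · exact h q hq h3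
    · obtain ⟨k, hk⟩ := IsPGroup.iff_card.mp hN
      rw [hk] at h3
      have := (Nat.prime_dvd_prime_iff_eq hq hp.out).mp (hq.dvd_of_dvd_pow h3)
      omega

theorem card_AA [Finite X] {p t : ℕ} [hp : Fact p.Prime] (N : Subgroup X) [N.Normal]
    (hN : IsPGroup p N) (ht : t < p) :
    Nat.card (AA t X) = Nat.card N * Nat.card (AA t (X ⧸ N)) := by
  rw [AA_eq_preimage N hN ht]
  exact QuotientGroup.card_preimage_mk N _

theorem card_AA_eq_one [Finite X] {t : ℕ} (h : ∀ q : ℕ, q.Prime → q ∣ Nat.card X → q ≤ t) :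
    Nat.card (AA t X) = 1 := by
  have : AA t X = {1} := by
    ext x
    simp only [AA, Set.mem_ofPred_eq, Set.mem_singleton_iff]
    constructor
    · intro hx
      by_contra hne
      have h1 : orderOf x ≠ 1 := fun he => hne (orderOf_eq_one_iff.mp he)
      obtain ⟨q, hq, hqd⟩ := Nat.exists_prime_and_dvd h1
      have h2 := hx q hq hqd
      have h3 := h q hq (hqd.trans (orderOf_dvd_natCard x))
      omega
    · rintro rfl q hq hqd
      rw [orderOf_one] at hqd
      exact absurd (Nat.dvd_one.mp hqd) hq.one_lt.ne'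
  rw [this]
  simp

theorem Tw.lift [Finite X] {p : ℕ} [hp : Fact p.Prime] (N : Subgroup X) [N.Normal]
    (hN : IsPGroup p N) (hmax : ∀ q : ℕ, q.Prime → q ∣ Nat.card X → q ≤ p) (h : Tw (X ⧸ N)) :
    Tw X := by
  intro t
  by_cases ht : t < p
  · obtain ⟨d, e, h1, h2, h3, h4⟩ := h t
    refine ⟨Nat.card N * d, e, ?_, ?_, h3, ?_⟩
    · rw [← card_quotient_mul_card N, h1]; ring
    · intro q hq hqd
      rcases (hq.dvd_mul).mp hqd with h5 | h5
      · obtain ⟨k, hk⟩ := IsPGroup.iff_card.mp hN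
        rw [hk] at h5
        have := (Nat.prime_dvd_prime_iff_eq hq hp.out).mp (hq.dvd_of_dvd_pow h5)
        omega
      · exact h2 q hq h5
    · rw [card_AA N hN ht, h4]
  · refine ⟨1, Nat.card X, by ring, ?_, ?_, ?_⟩
    · intro q hq hqd
      exact absurd (Nat.dvd_one.mp hqd) hq.one_lt.ne'
    · intro q hq hqd
      exact (hmax q hq hqd).trans (not_lt.mp ht)
    · exact card_AA_eq_one fun q hq hqd => (hmax q hq hqd).trans (not_lt.mp ht)

theorem Tw.descend [Finite X] {p : ℕ} [hp : Fact p.Prime] (N : Subgroup X) [N.Normal]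
    (hN : IsPGroup p N) (hmax : ∀ q : ℕ, q.Prime → q ∣ Nat.card X → q ≤ p) (h : Tw X) :
    Tw (X ⧸ N) := by
  have hc := card_quotient_mul_card N
  have hmax' : ∀ q : ℕ, q.Prime → q ∣ Nat.card (X ⧸ N) → q ≤ p :=
    fun q hq hqd => hmax q hq (hqd.trans (Dvd.intro _ hc))
  intro t
  by_cases ht : t < p
  · obtain ⟨d, e, h1, h2, h3, h4⟩ := h t
    rw [card_AA N hN ht] at h4
    refine ⟨Nat.card (AA t (X ⧸ N)), e, ?_, ?_, h3, rfl⟩
    · have h5 : Nat.card N * Nat.card (X ⧸ N) = Nat.card N * (Nat.card (AA t (X ⧸ N)) * e) := by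
        rw [mul_comm, hc, h1, ← h4]; ring
      exact Nat.eq_of_mul_eq_mul_left Nat.card_pos h5
    · intro q hq hqd
      exact h2 q hq (h4 ▸ hqd.trans (Dvd.intro_left _ rfl))
  · refine ⟨1, Nat.card (X ⧸ N), by ring, ?_, ?_, ?_⟩
    · intro q hq hqd
      exact absurd (Nat.dvd_one.mp hqd) hq.one_lt.ne'
    · intro q hq hqd
      exact (hmax' q hq hqd).trans (not_lt.mp ht)
    · exact card_AA_eq_one fun q hq hqd => (hmax' q hq hqd).trans (not_lt.mp ht)

/-- under the tower property the Sylow subgroup for the largest prime is normal -/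
theorem Tw.sylow_normal [Finite X] {p : ℕ} [hp : Fact p.Prime]
    (hmax : ∀ q : ℕ, q.Prime → q ∣ Nat.card X → q ≤ p) (h : Tw X) (P : Sylow p X) :
    (P : Subgroup X).Normal := by
  obtain ⟨d, e, h1, h2, h3, h4⟩ := h (p - 1)
  have hp1 : 1 ≤ p := hp.out.one_lt.le
  -- `d` is a power of `p`, `e` is prime to `p`
  have hpe : ¬ p ∣ e := by
    intro hd
    have := h3 p hp.out hd
    omega
  have hd0 : d ≠ 0 := by
    rintro rfl
    rw [zero_mul] at h1
    exact Nat.card_pos.ne' h1
  have he0 : e ≠ 0 := by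
    rintro rfl
    rw [mul_zero] at h1
    exact Nat.card_pos.ne' h1
  have hdp : d = p ^ d.factorization p := by
    have h7 : d = p ^ d.primeFactorsList.length := by
      apply Nat.eq_prime_pow_of_unique_prime_dvd hd0
      intro q hq hqd
      have h5 := h2 q hq hqd
      have h6 := hmax q hq (h1 ▸ hqd.trans (Dvd.intro _ rfl))
      omega
    conv_rhs => rw [h7, hp.out.factorization_pow, Finsupp.single_eq_same]
    exact h7
  have hPd : Nat.card (P : Subgroup X) = d := by
    rw [P.card_eq_multiplicity, h1, Nat.factorization_mul hd0 he0, Finsupp.add_apply,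
      Nat.factorization_eq_zero_of_not_dvd hpe, add_zero]
    exact hdp.symm
  have hsub : ((P : Subgroup X) : Set X) ⊆ AA (p - 1) X := by
    intro x hx q hq hqd
    obtain ⟨k, hk⟩ := (P.isPGroup'.to_le (Subgroup.zpowers_le.mpr hx)).exists_card_eq
    rw [Nat.card_zpowers] at hk
    rw [hk] at hqd
    have := (Nat.prime_dvd_prime_iff_eq hq hp.out).mp (hq.dvd_of_dvd_pow hqd)
    omega
  have heq : ((P : Subgroup X) : Set X) = AA (p - 1) X := by
    apply Set.eq_of_subset_of_ncard_le hsub _ (Set.toFinite _)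
    rw [← Nat.card_coe_set_eq, ← Nat.card_coe_set_eq, h4]
    exact hPd.ge
  refine ⟨fun x hx g => ?_⟩
  have h5 : x ∈ AA (p - 1) X := hsub hx
  have h6 : g * x * g⁻¹ ∈ AA (p - 1) X := by
    intro q hq hqd
    apply h5 q hq
    have := (MulAut.conj g).orderOf_eq x
    rw [MulAut.conj_apply] at this
    rwa [this] at hqd
  rw [← heq] at h6
  exact h6

theorem exists_max_prime [Finite X] [Nontrivial X] : ∃ p : ℕ, p.Prime ∧ p ∣ Nat.card X ∧
    ∀ q : ℕ, q.Prime → q ∣ Nat.card X → q ≤ p := by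
  have hne : (Nat.card X).primeFactors.Nonempty := by
    rw [Nat.nonempty_primeFactors]
    exact Finite.one_lt_card
  have hpmem := Finset.max'_mem _ hne
  refine ⟨_, Nat.prime_of_mem_primeFactors hpmem, Nat.dvd_of_mem_primeFactors hpmem, ?_⟩
  intro q hq hqd
  apply Finset.le_max'
  rw [Nat.mem_primeFactors]
  exact ⟨hq, hqd, Nat.card_pos.ne'⟩

theorem tw_of_subsingleton [Subsingleton X] : Tw X := by
  intro t
  have h1 : Nat.card X = 1 := Nat.card_eq_one_iff_unique.mpr ⟨inferInstance, ⟨1⟩⟩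
  refine ⟨1, 1, by rw [h1], ?_, ?_, ?_⟩
  · intro q hq hqd
    exact absurd (Nat.dvd_one.mp hqd) hq.one_lt.ne'
  · intro q hq hqd
    exact absurd (Nat.dvd_one.mp hqd) hq.one_lt.ne'
  · have : Finite X := Finite.of_subsingleton
    apply card_AA_eq_one
    intro q hq hqd
    rw [h1] at hqd
    exact absurd (Nat.dvd_one.mp hqd) hq.one_lt.ne'

theorem tw_of_supersolvable : ∀ (n : ℕ) (X : Type u) [Group X] [Finite X], Nat.card X = n →
    Cfsg.IsSupersolvable X → Tw X := by
  intro n
  induction n using Nat.strong_induction_on with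
  | _ n ih =>
  intro X _ _ hn hX
  rcases subsingleton_or_nontrivial X with hs | hnt
  · exact tw_of_subsingleton
  obtain ⟨p, hp, hpd, hmax⟩ := exists_max_prime (X := X)
  have := Fact.mk hp
  obtain ⟨N, hNn, hNc⟩ := Cfsg.Agent.S0529.exists_normal_max_prime _ X rfl hX p hp hpd hmax
  have hNp : IsPGroup p N := IsPGroup.of_card (n := 1) (by rw [hNc, pow_one])
  exact Tw.lift N hNp hmax (ih _ (hn ▸ card_quotient_lt N (hNc ▸ hp.one_lt)) (X ⧸ N) rfl
    (isSupersolvable_of_surjective (QuotientGroup.mk'_surjective N) hX))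

theorem solvable_of_tw : ∀ (n : ℕ) (X : Type u) [Group X] [Finite X], Nat.card X = n →
    Tw X → Group.IsSolvable X := by
  intro n
  induction n using Nat.strong_induction_on with
  | _ n ih =>
  intro X _ _ hn hX
  rcases subsingleton_or_nontrivial X with hs | hnt
  · infer_instance
  obtain ⟨p, hp, hpd, hmax⟩ := exists_max_prime (X := X)
  have := Fact.mk hp
  obtain ⟨P⟩ : Nonempty (Sylow p X) := inferInstance
  have hPn : (P : Subgroup X).Normal := hX.sylow_normal hmax P
  have hP1 : 1 < Nat.card (P : Subgroup X) := by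
    rw [P.card_eq_multiplicity]
    apply Nat.one_lt_pow _ hp.one_lt
    exact (hp.factorization_pos_of_dvd Nat.card_pos.ne' hpd).ne'
  have h1 := ih _ (hn ▸ card_quotient_lt (P : Subgroup X) hP1) (X ⧸ (P : Subgroup X)) rfl
    (hX.descend (P : Subgroup X) P.isPGroup' hmax)
  have h2 : Group.IsSolvable (P : Subgroup X) := by
    have := P.isPGroup'.isNilpotent
    infer_instance
  exact Group.isSolvable_of_ker_le_range (P : Subgroup X).subtype (QuotientGroup.mk' (P : Subgroup X))
    (by rw [QuotientGroup.ker_mk', Subgroup.range_subtype])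

/-- transfer of the tower property along a bijection preserving orders -/
theorem Tw.transfer {Y : Type v} [Group Y] (e : X ≃ Y) (he : ∀ x, orderOf (e x) = orderOf x)
    (h : Tw X) : Tw Y := by
  intro t
  obtain ⟨d, f, h1, h2, h3, h4⟩ := h t
  refine ⟨d, f, by rw [← Nat.card_congr e, h1], h2, h3, ?_⟩
  rw [← h4]
  apply Nat.card_congr
  refine (Equiv.subtypeEquiv e ?_).symm
  intro x
  simp only [AA, Set.mem_ofPred_eq, he]

theorem exists_order_equiv {Y : Type v} [Group Y] [Finite X] [Finite Y]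
    (hT : ∀ m : ℕ, Nat.card {g : X // orderOf g = m} = Nat.card {h : Y // orderOf h = m}) :
    ∃ e : X ≃ Y, ∀ x, orderOf (e x) = orderOf x := by
  have h1 : ∀ m : ℕ, Nonempty ({g : X // orderOf g = m} ≃ {h : Y // orderOf h = m}) :=
    fun m => Finite.card_eq.mp (hT m)
  let f : ∀ m : ℕ, {g : X // orderOf g = m} ≃ {h : Y // orderOf h = m} := fun m => (h1 m).some
  refine ⟨((Equiv.sigmaFiberEquiv (orderOf : X → ℕ)).symm.trans (Equiv.sigmaCongrRight f)).trans
    (Equiv.sigmaFiberEquiv (orderOf : Y → ℕ)), ?_⟩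
  intro x
  simp only [Equiv.trans_apply, Equiv.sigmaFiberEquiv, Equiv.coe_fn_symm_mk, Equiv.coe_fn_mk,
    Equiv.sigmaCongrRight_apply]
  exact (f (orderOf x) ⟨x, rfl⟩).2

end Cfsg.Agent.Lib.Helper9.Tower
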