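import Mathlib
import Cfsg.Prelude.Def_OddOrderLocal
import Cfsg.Agent.Lib.Helper9.Sig2
import Cfsg.Agent.Lib.Helper9.StrongEmb
import Cfsg.Agent.Lib.Helper6.FStar

set_option autoImplicit false
set_option linter.unusedSectionVars false
open Pointwise
open scoped commutatorElement

/-! Transitivity theorems (Bender–Glauberman, section 7). -/

namespace Cfsg.Agent.Lib.Helper9.Trans

open Cfsg.Agent.Lib.Helper1 Cfsg.Agent.Lib.Helper3.CopGen Cfsg.Agent.Lib.Helper9.Sig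
open Cfsg.Agent.Lib.Helper6.Subn Cfsg.Agent.Lib.Helper6.Rad Cfsg.Agent.Lib.Helper6.FStar

universe u
variable {G : Type u} [Group G] [Finite G]

theorem pi_iff_coprime {n m : ℕ} :
    (∀ p : ℕ, p.Prime → p ∣ m → p ∈ Cfsg.primesNotDvd n) ↔ m.Coprime n := by
  constructor
  · intro h
    exact Nat.coprime_of_dvd fun k hk hkm => (h k hk hkm).2
  · intro h p hp hpm
    refine ⟨hp, fun hpn => ?_⟩
    exact hp.one_lt.ne' (Nat.eq_one_of_dvd_coprimes h hpm hpn)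

theorem piCoreOf_eq (n : ℕ) (X : Subgroup G) :
    Cfsg.piCoreOf (Cfsg.primesNotDvd n) X = Op' n X := by
  unfold Cfsg.piCoreOf Cfsg.piCore
  exact map_sSup_normal _ _ fun A => by
    rw [Subgroup.card_map_of_injective X.subtype_injective]
    exact pi_iff_coprime

theorem pi_iff_pGroup {q : ℕ} [hq : Fact q.Prime] {Y : Subgroup G} :
    (∀ p : ℕ, p.Prime → p ∣ Nat.card Y → p ∈ ({q} : Set ℕ)) ↔ IsPGroup q Y := by
  constructor
  · intro h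
    exact IsPGroup.of_card (Nat.eq_prime_pow_of_unique_prime_dvd Nat.card_pos.ne'
      (fun {d} hd hdv => h d hd hdv))
  · intro h p hp hpd
    obtain ⟨k, hk⟩ := IsPGroup.iff_card.mp h
    rw [hk] at hpd
    exact (Nat.prime_dvd_prime_iff_eq hp hq.out).mp (hp.dvd_of_dvd_pow hpd)

/-- the ambient hypotheses: simple, non-abelian, proper subgroups solvable -/
structure MS (G : Type u) [Group G] : Prop where
  simple : ∀ N : Subgroup G, N.Normal → N = ⊥ ∨ N = ⊤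
  nonab : ¬ IsMulCommutative G
  solv : ∀ H : Subgroup G, H ≠ ⊤ → Group.IsSolvable H

theorem ms_of (h : Cfsg.IsMinSimpleOddOrder G) : MS G := by
  obtain ⟨-, h1, h2, h3⟩ := h
  exact ⟨fun N hN => h1.eq_bot_or_eq_top_of_normal N hN, h2, h3⟩

theorem MS.Nz_ne_top (h : MS G) {D : Subgroup G} (h1 : D ≠ ⊥) (h2 : D ≠ ⊤) :
    Subgroup.normalizer (D : Set G) ≠ ⊤ := by
  intro he
  rcases h.simple D (Subgroup.normalizer_eq_top_iff.mp he) with h3 | h3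
  · exact h1 h3
  · exact h2 h3

theorem MS.Cz_ne_top (h : MS G) {b : G} (hb : b ≠ 1) : Subgroup.centralizer ({b} : Set G) ≠ ⊤ := by
  intro he
  have hbz : b ∈ Subgroup.center G := by
    rw [Subgroup.mem_center_iff]
    intro g
    have : g ∈ Subgroup.centralizer ({b} : Set G) := he ▸ Subgroup.mem_top g
    exact (Subgroup.mem_centralizer_iff.mp this b rfl).symm
  rcases h.simple (Subgroup.center G) inferInstance with h3 | h3
  · rw [h3, Subgroup.mem_bot] at hbz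
    exact hb hbz
  · apply h.nonab
    refine ⟨⟨fun x y => ?_⟩⟩
    have : x ∈ Subgroup.center G := h3 ▸ Subgroup.mem_top x
    exact (Subgroup.mem_center_iff.mp this y).symm

/-- internal form of the transitivity hypothesis -/
structure TH (A : Subgroup G) : Prop where
  ne_bot : A ≠ ⊥
  ne_top : A ≠ ⊤
  le : ∀ X : Subgroup G, X ≠ ⊤ → A ≤ X → ∀ Y : Subgroup G, Y ≤ X →
    (Nat.card Y).Coprime (Nat.card A) → A ≤ Subgroup.normalizer (Y : Set G) → Y ≤ Op' (Nat.card A) X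

theorem th_of {A : Subgroup G} (h : Cfsg.TransitivityHypothesis A) : TH A := by
  obtain ⟨h1, h2, h3⟩ := h
  refine ⟨h1, h2, ?_⟩
  intro X hX hAX Y hYX hY hAY
  rw [← piCoreOf_eq, ← h3 X hX hAX]
  exact le_sSup ⟨hYX, pi_iff_coprime.mpr hY, hAY⟩

variable {A : Subgroup G}

/-- `K = O_{π(A)'}(C(A))` -/
noncomputable def KK (A : Subgroup G) : Subgroup G := Op' (Nat.card A) (Subgroup.centralizer (A : Set G))

theorem KK_le (A : Subgroup G) : KK A ≤ Subgroup.centralizer (A : Set G) := Op'_le _ _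

theorem inf_cz_le_KK (hG : MS G) (hA : TH A) (X : Subgroup G) :
    Op' (Nat.card A) X ⊓ Subgroup.centralizer (A : Set G) ≤ KK A := by
  set n := Nat.card A with hn
  set M := Subgroup.normalizer (A : Set G) with hM
  have hMt : M ≠ ⊤ := hG.Nz_ne_top hA.ne_bot hA.ne_top
  have h1 : Op' n X ⊓ Subgroup.centralizer (A : Set G) ≤ Op' n M := by
    apply hA.le M hMt Subgroup.le_normalizer _
      (inf_le_right.trans (Subgroup.centralizer_le_normalizer _))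
    · exact Nat.Coprime.coprime_dvd_left (Subgroup.card_dvd_of_le inf_le_left) (Op'_coprime n X)
    · intro a ha
      apply Subgroup.centralizer_le_normalizer
      rw [Subgroup.mem_centralizer_iff]
      intro y hy
      exact (Subgroup.mem_centralizer_iff.mp hy.2 a ha).symm
  refine h1.trans ?_
  have h2 : Op' n M ≤ Subgroup.centralizer (A : Set G) := by
    rw [← Subgroup.commutator_eq_bot_iff_le_centralizer, eq_bot_iff]
    have h3 : ⁅Op' n M, A⁆ ≤ Op' n M ⊓ A := by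
      apply le_inf
      · rw [Subgroup.commutator_le]
        intro x hx a ha
        rw [commutatorElement_def, mul_assoc, mul_assoc]
        refine Subgroup.mul_mem _ hx ?_
        rw [← mul_assoc]
        exact (Subgroup.mem_normalizer_iff.mp (le_Nz_Op' n M (Subgroup.le_normalizer ha)) _).mp
          (Subgroup.inv_mem _ hx)
      · rw [Subgroup.commutator_le]
        intro x hx a ha
        rw [commutatorElement_def]
        exact A.mul_mem ((Subgroup.mem_normalizer_iff.mp (Op'_le n M hx) a).mp ha) (A.inv_mem ha)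
    refine h3.trans ?_
    exact (Subgroup.disjoint_of_coprime_natCard (Op'_coprime n M)).le_bot
  exact le_Rd h2 ((Subgroup.centralizer_le_normalizer _).trans (le_Nz_Op' n M)) (Op'_coprime n M)

/-- maximal `A`-invariant `q`-subgroups -/
def MQ (A : Subgroup G) (q : ℕ) (Q : Subgroup G) : Prop :=
  IsPGroup q Q ∧ A ≤ Subgroup.normalizer (Q : Set G) ∧
    ∀ R : Subgroup G, IsPGroup q R → A ≤ Subgroup.normalizer (R : Set G) → Q ≤ R → R = Q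

theorem mq_iff {q : ℕ} [Fact q.Prime] {Q : Subgroup G} :
    Q ∈ Cfsg.maxInvSubgroups ⊤ A {q} ↔ MQ A q Q := by
  constructor
  · rintro ⟨⟨-, h1, h2⟩, h3⟩
    exact ⟨pi_iff_pGroup.mp h1, h2, fun R hR hAR hle => h3 R ⟨le_top, pi_iff_pGroup.mpr hR, hAR⟩ hle⟩
  · rintro ⟨h1, h2, h3⟩
    exact ⟨⟨le_top, pi_iff_pGroup.mpr h1, h2⟩, fun R hR hle => h3 R (pi_iff_pGroup.mp hR.2.1) hR.2.2 hle⟩

theorem exists_mq {q : ℕ} {R : Subgroup G} (hq : IsPGroup q R)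
    (hR : A ≤ Subgroup.normalizer (R : Set G)) : ∃ Q, MQ A q Q ∧ R ≤ Q := by
  obtain ⟨Q, hRQ, hQ⟩ := Set.Finite.exists_le_maximal
    (s := {Q : Subgroup G | IsPGroup q Q ∧ A ≤ Subgroup.normalizer (Q : Set G)}) (Set.toFinite _)
    ⟨hq, hR⟩
  exact ⟨Q, ⟨hQ.prop.1, hQ.prop.2, fun S hS hSA hle => le_antisymm (hQ.le_of_ge ⟨hS, hSA⟩ hle) hle⟩,
    hRQ⟩

theorem inv_conj {U : Subgroup G} (hU : A ≤ Subgroup.normalizer (U : Set G)) {c : G}
    (hc : c ∈ Subgroup.centralizer (A : Set G)) :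
    A ≤ Subgroup.normalizer ((MulAut.conj c • U : Subgroup G) : Set G) := by
  intro b hb
  apply mem_normalizer_of_conj_smul_eq
  rw [conj_smul_smul, Subgroup.mem_centralizer_iff.mp hc b hb, ← conj_smul_smul,
    conj_smul_eq_of_mem_normalizer (hU hb)]

theorem MQ.conj {q : ℕ} {Q : Subgroup G} (hQ : MQ A q Q) {c : G}
    (hc : c ∈ Subgroup.centralizer (A : Set G)) : MQ A q (MulAut.conj c • Q) := by
  refine ⟨isPGroup_conj hQ.1 c, inv_conj hQ.2.1 hc, ?_⟩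
  intro R hR hAR hle
  have h1 := hQ.2.2 (MulAut.conj c⁻¹ • R) (isPGroup_conj hR _) (inv_conj hAR (Subgroup.inv_mem _ hc))
    (by
      have := Subgroup.pointwise_smul_le_pointwise_smul_iff (a := MulAut.conj c⁻¹).mpr hle
      rwa [conj_smul_smul, inv_mul_cancel, map_one, one_smul] at this)
  rw [← h1, conj_smul_smul, mul_inv_cancel, map_one, one_smul]

/-- conjugacy under `K` -/
def CK (A : Subgroup G) (Q Q' : Subgroup G) : Prop := ∃ c ∈ KK A, MulAut.conj c • Q = Q'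

theorem CK.refl (Q : Subgroup G) : CK A Q Q := ⟨1, Subgroup.one_mem _, by simp⟩

theorem CK.symm {Q Q' : Subgroup G} (h : CK A Q Q') : CK A Q' Q := by
  obtain ⟨c, hc, rfl⟩ := h
  exact ⟨c⁻¹, Subgroup.inv_mem _ hc, by rw [conj_smul_smul, inv_mul_cancel, map_one, one_smul]⟩

theorem CK.trans {Q Q' Q'' : Subgroup G} (h : CK A Q Q') (h' : CK A Q' Q'') : CK A Q Q'' := by
  obtain ⟨c, hc, rfl⟩ := h
  obtain ⟨d, hd, rfl⟩ := h'
  exact ⟨d * c, Subgroup.mul_mem _ hd hc, by rw [conj_smul_smul]⟩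

theorem cop_q {q : ℕ} [hq : Fact q.Prime] (hqA : ¬ q ∣ Nat.card A) {T : Subgroup G}
    (hT : IsPGroup q T) : (Nat.card T).Coprime (Nat.card A) := by
  obtain ⟨k, hk⟩ := IsPGroup.iff_card.mp hT
  rw [hk]
  exact Nat.Coprime.pow_left _ ((Nat.Prime.coprime_iff_not_dvd hq.out).mpr hqA)

/-- the basic step: inside a proper subgroup `N ≥ A`, two invariant `q`-subgroups `T₁, T₂` lie in
maximal invariant `q`-subgroups of `G` that are linked under `K` -/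
theorem step (hG : MS G) (hA : TH A) {q : ℕ} [Fact q.Prime] (hqA : ¬ q ∣ Nat.card A)
    {N : Subgroup G} (hN : N ≠ ⊤) (hAN : A ≤ N) {T₁ T₂ : Subgroup G} (h₁ : T₁ ≤ N) (h₂ : T₂ ≤ N)
    (hq₁ : IsPGroup q T₁) (hq₂ : IsPGroup q T₂) (hA₁ : A ≤ Subgroup.normalizer (T₁ : Set G))
    (hA₂ : A ≤ Subgroup.normalizer (T₂ : Set G)) :
    ∃ Q₁' Q₂' : Subgroup G, ∃ c ∈ KK A, MQ A q Q₁' ∧ MQ A q Q₂' ∧ T₁ ≤ Q₁' ∧ T₂ ≤ Q₂' ∧
      T₂ ≤ MulAut.conj c • Q₁' := by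
  set n := Nat.card A with hn
  set L := Op' n N with hL
  have hAL : A ≤ Subgroup.normalizer (L : Set G) := hAN.trans (le_Nz_Op' n N)
  have hcop : (Nat.card A).Coprime (Nat.card L) := (Op'_coprime n N).symm
  have hsolv : Group.IsSolvable A ∨ Group.IsSolvable L := Or.inl (hG.solv A hA.ne_top)
  obtain ⟨S₁, hS₁L, hS₁c, hS₁A, hTS₁⟩ := exists_invariant_sylow_ge A L hAL hcop hsolv q T₁
    (hA.le N hN hAN T₁ h₁ (cop_q hqA hq₁) hA₁) hq₁ hA₁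
  obtain ⟨S₂, hS₂L, hS₂c, hS₂A, hTS₂⟩ := exists_invariant_sylow_ge A L hAL hcop hsolv q T₂
    (hA.le N hN hAN T₂ h₂ (cop_q hqA hq₂) hA₂) hq₂ hA₂
  obtain ⟨c, hc, hcS⟩ := invariant_sylow_conj A L hAL hcop hsolv q S₁ S₂ hS₁L hS₂L hS₁c hS₂c hS₁A hS₂A
  obtain ⟨Q₁', hQ₁', hSQ₁⟩ := exists_mq (IsPGroup.of_card hS₁c) hS₁A
  obtain ⟨Q₂', hQ₂', hSQ₂⟩ := exists_mq (IsPGroup.of_card hS₂c) hS₂A
  refine ⟨Q₁', Q₂', c, inf_cz_le_KK hG hA N hc, hQ₁', hQ₂', hTS₁.trans hSQ₁, hTS₂.trans hSQ₂, ?_⟩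
  refine hTS₂.trans ?_
  rw [← hcS]
  exact Subgroup.pointwise_smul_le_pointwise_smul_iff.mpr hSQ₁

theorem conj_of_meet_aux (hG : MS G) (hA : TH A) {q : ℕ} [Fact q.Prime] (hqA : ¬ q ∣ Nat.card A)
    (n : ℕ) : ∀ Q₁ Q₂ : Subgroup G, MQ A q Q₁ → MQ A q Q₂ → Q₁ ⊓ Q₂ ≠ ⊥ →
      Nat.card G - Nat.card (Q₁ ⊓ Q₂ : Subgroup G) = n → CK A Q₁ Q₂ := by
  induction n using Nat.strong_induction_on with
  | _ n ih =>
  intro Q₁ Q₂ h₁ h₂ hne hn
  by_cases hD₁ : Q₁ ⊓ Q₂ = Q₁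
  · have := h₁.2.2 Q₂ h₂.1 h₂.2.1 (inf_eq_left.mp hD₁)
    rw [this]; exact CK.refl _
  by_cases hD₂ : Q₁ ⊓ Q₂ = Q₂
  · have := h₂.2.2 Q₁ h₁.1 h₁.2.1 (inf_eq_right.mp hD₂)
    rw [this]; exact CK.refl _
  set D := Q₁ ⊓ Q₂ with hD
  have hAD : A ≤ Subgroup.normalizer (D : Set G) := le_normalizer_inf h₁.2.1 h₂.2.1
  have hlt₁ : D < Q₁ := lt_of_le_of_ne inf_le_left hD₁
  have hlt₂ : D < Q₂ := lt_of_le_of_ne inf_le_right hD₂
  have hDt : D ≠ ⊤ := fun he => absurd (he ▸ hlt₁) (not_lt_of_ge le_top)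
  set N := Subgroup.normalizer (D : Set G) with hN
  have hNt : N ≠ ⊤ := hG.Nz_ne_top hne hDt
  have grow : ∀ Q : Subgroup G, IsPGroup q Q → D < Q → D < Q ⊓ N := by
    intro Q hQ hlt
    obtain ⟨s, hs, hsD, hsN⟩ := Cfsg.Agent.Lib.Helper6.PAct.exists_mem_Nz_of_lt hQ.isNilpotent hlt
    refine lt_of_le_of_ne (le_inf hlt.le Subgroup.le_normalizer) ?_
    intro he
    exact hsD (he.ge ⟨hs, hsN⟩)
  obtain ⟨Q₁', Q₂', c, hc, hQ₁', hQ₂', hT₁, hT₂, hT₂c⟩ := step hG hA hqA hNt hAD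
    (inf_le_right : Q₁ ⊓ N ≤ N) (inf_le_right : Q₂ ⊓ N ≤ N) (h₁.1.to_le inf_le_left)
    (h₂.1.to_le inf_le_left) (le_normalizer_inf h₁.2.1 (le_Nz_Nz hAD))
    (le_normalizer_inf h₂.2.1 (le_Nz_Nz hAD))
  have use : ∀ R R' : Subgroup G, MQ A q R → MQ A q R' → D < R ⊓ R' → CK A R R' := by
    intro R R' hR hR' hlt
    refine ih (Nat.card G - Nat.card (R ⊓ R' : Subgroup G)) ?_ R R' hR hR'
      (fun he => absurd (he ▸ hlt) (not_lt_of_ge bot_le)) rfl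
    have h1 : Nat.card D < Nat.card (R ⊓ R' : Subgroup G) :=
      Cfsg.Agent.Lib.Helper6.Quasi.card_lt_of_lt hlt
    have h2 : Nat.card (R ⊓ R' : Subgroup G) ≤ Nat.card G := Subgroup.card_le_card_group _
    omega
  have e1 := use Q₁ Q₁' h₁ hQ₁' (lt_of_lt_of_le (grow Q₁ h₁.1 hlt₁) (le_inf inf_le_left hT₁))
  have e2 := use Q₂ Q₂' h₂ hQ₂' (lt_of_lt_of_le (grow Q₂ h₂.1 hlt₂) (le_inf inf_le_left hT₂))
  have e3 : CK A (MulAut.conj c • Q₁') Q₂' :=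
    use _ _ (hQ₁'.conj (KK_le A hc)) hQ₂' (lt_of_lt_of_le (grow Q₂ h₂.1 hlt₂) (le_inf hT₂c hT₂))
  have e4 : CK A Q₁' (MulAut.conj c • Q₁') := ⟨c, hc, rfl⟩
  exact e1.trans (e4.trans (e3.trans e2.symm))

theorem conj_of_meet (hG : MS G) (hA : TH A) {q : ℕ} [Fact q.Prime] (hqA : ¬ q ∣ Nat.card A)
    {Q₁ Q₂ : Subgroup G} (h₁ : MQ A q Q₁) (h₂ : MQ A q Q₂) (hne : Q₁ ⊓ Q₂ ≠ ⊥) : CK A Q₁ Q₂ :=
  conj_of_meet_aux hG hA hqA _ Q₁ Q₂ h₁ h₂ hne rfl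

theorem ne_bot_of_le {X Y : Subgroup G} (hX : X ≠ ⊥) (h : X ≤ Y) : Y ≠ ⊥ :=
  fun he => hX (le_bot_iff.mp (he ▸ h))

/-- BG 7.2 -/
theorem conj_of_proper (hG : MS G) (hA : TH A) {q : ℕ} [Fact q.Prime] (hqA : ¬ q ∣ Nat.card A)
    {Q₁ Q₂ : Subgroup G} (h₁ : MQ A q Q₁) (h₂ : MQ A q Q₂) {H : Subgroup G} (hH : H ≠ ⊤)
    (hAH : A ≤ H) (hH₁ : H ⊓ Q₁ ≠ ⊥) (hH₂ : H ⊓ Q₂ ≠ ⊥) : CK A Q₁ Q₂ := by
  have hAHn : A ≤ Subgroup.normalizer (H : Set G) := hAH.trans Subgroup.le_normalizer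
  obtain ⟨Q₁', Q₂', c, hc, hQ₁', hQ₂', hT₁, hT₂, hT₂c⟩ := step hG hA hqA hH hAH
    (inf_le_left : H ⊓ Q₁ ≤ H) (inf_le_left : H ⊓ Q₂ ≤ H) (h₁.1.to_le inf_le_right)
    (h₂.1.to_le inf_le_right) (le_normalizer_inf hAHn h₁.2.1) (le_normalizer_inf hAHn h₂.2.1)
  have e1 := conj_of_meet hG hA hqA h₁ hQ₁' (ne_bot_of_le hH₁ (le_inf inf_le_right hT₁))
  have e2 := conj_of_meet hG hA hqA h₂ hQ₂' (ne_bot_of_le hH₂ (le_inf inf_le_right hT₂))
  have e3 := conj_of_meet hG hA hqA (hQ₁'.conj (KK_le A hc)) hQ₂' (ne_bot_of_le hH₂ (le_inf hT₂c hT₂))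
  have e4 : CK A Q₁' (MulAut.conj c • Q₁') := ⟨c, hc, rfl⟩
  exact e1.trans (e4.trans (e3.trans e2.symm))


theorem ea_of_rank {k : ℕ} {Z : Subgroup G} (h : ¬ Cfsg.RankLE k ↥Z) :
    ∃ p : ℕ, p.Prime ∧ ∃ B : Subgroup G, B ≤ Z ∧ Cfsg.IsElementaryAbelian p B ∧ p ^ k < Nat.card B := by
  unfold Cfsg.RankLE at h
  push Not at h
  obtain ⟨p, hp, h1⟩ := h
  obtain ⟨B, hBZ, hc, he, hk⟩ := Cfsg.Agent.Lib.Helper9.StrongEmb.big_iff.mp h1
  exact ⟨p, hp, B, hBZ, ⟨hc, he⟩, hk⟩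

theorem MQ.eq_bot_of_bot {q : ℕ} {Q₁ Q₂ : Subgroup G} (h₁ : MQ A q Q₁) (h₂ : MQ A q Q₂)
    (h : Q₁ = ⊥) : Q₂ = Q₁ := h₁.2.2 Q₂ h₂.1 h₂.2.1 (h ▸ bot_le)

theorem le_cz_of_mem_center {b : G} (hb : b ∈ A ⊓ Subgroup.centralizer (A : Set G)) :
    A ≤ Subgroup.centralizer ({b} : Set G) := by
  intro a ha
  rw [Subgroup.mem_centralizer_iff]
  intro z hz
  rw [show z = b from hz]
  exact (Subgroup.mem_centralizer_iff.mp hb.2 a ha).symm

theorem dvd_card_of_ea {p k : ℕ} (hp : p.Prime) {B : Subgroup G}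
    (hB : Cfsg.IsElementaryAbelian p B) (hk : p ^ k < Nat.card B) : p ∣ Nat.card B := by
  have := Fact.mk hp
  obtain ⟨m, hm⟩ := IsPGroup.iff_card.mp (ea_pGroup hB)
  rw [hm] at hk ⊢
  have : m ≠ 0 := by
    rintro rfl
    rw [pow_zero] at hk
    have := Nat.one_le_pow k p hp.pos
    omega
  exact dvd_pow_self p this

theorem succ_pow_le_card {p k : ℕ} (hp : p.Prime) {B : Subgroup G}
    (hB : Cfsg.IsElementaryAbelian p B) (hk : p ^ k < Nat.card B) : p ^ (k + 1) ≤ Nat.card B := by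
  have := Fact.mk hp
  obtain ⟨m, hm⟩ := IsPGroup.iff_card.mp (ea_pGroup hB)
  rw [hm] at hk ⊢
  exact Nat.pow_le_pow_right hp.pos ((Nat.pow_lt_pow_iff_right hp.one_lt).mp hk)

/-- BG 7.3 -/
theorem conj_of_rank3 (hG : MS G) (hA : TH A)
    (hZ : ¬ Cfsg.RankLE 2 ↥(A ⊓ Subgroup.centralizer (A : Set G))) {q : ℕ} [hq : Fact q.Prime]
    (hqA : ¬ q ∣ Nat.card A) {Q₁ Q₂ : Subgroup G} (h₁ : MQ A q Q₁) (h₂ : MQ A q Q₂) :
    CK A Q₁ Q₂ := by
  by_cases hb₁ : Q₁ = ⊥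
  · rw [h₁.eq_bot_of_bot h₂ hb₁]; exact CK.refl _
  by_cases hb₂ : Q₂ = ⊥
  · rw [h₂.eq_bot_of_bot h₁ hb₂]; exact CK.refl _
  obtain ⟨p, hp, B, hBZ, hB, hk⟩ := ea_of_rank hZ
  have := Fact.mk hp
  have hBA : B ≤ A := hBZ.trans inf_le_left
  have hpA : p ∣ Nat.card A := (dvd_card_of_ea hp hB hk).trans (Subgroup.card_dvd_of_le hBA)
  have hqp : q ≠ p := fun he => hqA (he ▸ hpA)
  obtain ⟨B₁, hB₁, hn₁⟩ := exists_cocyc_not_le hB (not_dvd_of_pGroup hqp h₁.1) (hBA.trans h₁.2.1)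
    (D := ⊥) (fun h => hb₁ (le_bot_iff.mp h))
  obtain ⟨B₂, hB₂, hn₂⟩ := exists_cocyc_not_le hB (not_dvd_of_pGroup hqp h₂.1) (hBA.trans h₂.2.1)
    (D := ⊥) (fun h => hb₂ (le_bot_iff.mp h))
  obtain ⟨b, hb, hb1⟩ := exists_common hB (succ_pow_le_card hp hB hk) hB₁ hB₂
  apply conj_of_proper hG hA hqA h₁ h₂ (hG.Cz_ne_top hb1) (le_cz_of_mem_center (hBZ (hB₁.1 hb.1)))
  · intro he
    apply hn₁
    rw [← he]
    exact le_inf (inf_le_right.trans (Subgroup.centralizer_le (Set.singleton_subset_iff.mpr hb.1)))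
      inf_le_left
  · intro he
    apply hn₂
    rw [← he]
    exact le_inf (inf_le_right.trans (Subgroup.centralizer_le (Set.singleton_subset_iff.mpr hb.2)))
      inf_le_left

/-- BG 7.4 -/
theorem conj_of_rank2 (hG : MS G) (hA : TH A)
    (hZ : ¬ Cfsg.RankLE 1 ↥(A ⊓ Subgroup.centralizer (A : Set G))) {q : ℕ} [hq : Fact q.Prime]
    (hqA : ¬ q ∣ Nat.card A) (hqC : q ∣ Nat.card (Subgroup.centralizer (A : Set G)))
    {Q₁ Q₂ : Subgroup G} (h₁ : MQ A q Q₁) (h₂ : MQ A q Q₂) : CK A Q₁ Q₂ := by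
  obtain ⟨p, hp, B, hBZ, hB, hk⟩ := ea_of_rank hZ
  have := Fact.mk hp
  have hBA : B ≤ A := hBZ.trans inf_le_left
  have hpA : p ∣ Nat.card A := (dvd_card_of_ea hp hB hk).trans (Subgroup.card_dvd_of_le hBA)
  have hqp : q ≠ p := fun he => hqA (he ▸ hpA)
  obtain ⟨x, hx⟩ := exists_prime_orderOf_dvd_card' (G := Subgroup.centralizer (A : Set G)) q hqC
  have hxo : orderOf (x : G) = q := by rw [Subgroup.orderOf_coe]; exact hx
  have hx1 : (x : G) ≠ 1 := by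
    intro he
    rw [he, orderOf_one] at hxo
    exact hq.out.one_lt.ne hxo
  set Q₀ := Subgroup.zpowers (x : G) with hQ₀
  have hQ₀q : IsPGroup q Q₀ := IsPGroup.of_card (n := 1) (by rw [Nat.card_zpowers, hxo, pow_one])
  have hQ₀C : Q₀ ≤ Subgroup.centralizer (A : Set G) := Subgroup.zpowers_le.mpr x.2
  have hQ₀A : A ≤ Subgroup.normalizer (Q₀ : Set G) := by
    intro a ha
    apply Subgroup.centralizer_le_normalizer
    rw [Subgroup.mem_centralizer_iff]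
    intro y hy
    exact (Subgroup.mem_centralizer_iff.mp (hQ₀C hy) a ha).symm
  have hQ₀ne : Q₀ ≠ ⊥ := by rw [hQ₀, Ne, Subgroup.zpowers_eq_bot]; exact hx1
  obtain ⟨Qs, hQs, hle⟩ := exists_mq hQ₀q hQ₀A
  have key : ∀ Q : Subgroup G, MQ A q Q → CK A Q Qs := by
    intro Q hQ
    have hQne : Q ≠ ⊥ := by
      intro he
      exact hQ₀ne ((hQ.2.2 Q₀ hQ₀q hQ₀A (he ▸ bot_le)).trans he)
    obtain ⟨B₁, hB₁, hn₁⟩ := exists_cocyc_not_le hB (not_dvd_of_pGroup hqp hQ.1) (hBA.trans hQ.2.1)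
      (D := ⊥) (fun h => hQne (le_bot_iff.mp h))
    have hB₁ne : B₁ ≠ ⊥ := by
      intro he
      have h3 := hB₁.card_le hB hp.pos
      rw [he, Subgroup.card_bot, one_mul] at h3
      rw [pow_one] at hk
      omega
    obtain ⟨⟨b, hb⟩, hb1⟩ := Subgroup.ne_bot_iff_exists_ne_one.mp hB₁ne
    have hb1' : b ≠ 1 := fun hh => hb1 (Subtype.ext hh)
    have hAb := le_cz_of_mem_center (hBZ (hB₁.1 hb))
    apply conj_of_proper hG hA hqA hQ hQs (hG.Cz_ne_top hb1') hAb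
    · intro he
      apply hn₁
      rw [← he]
      exact le_inf (inf_le_right.trans (Subgroup.centralizer_le (Set.singleton_subset_iff.mpr hb)))
        inf_le_left
    · apply ne_bot_of_le hQ₀ne
      refine le_inf (hQ₀C.trans ?_) hle
      exact Subgroup.centralizer_le (Set.singleton_subset_iff.mpr (hBA (hB₁.1 hb)))
  exact (key Q₁ h₁).trans (key Q₂ h₂).symm

theorem CK.out {Q₁ Q₂ : Subgroup G} (h : CK A Q₁ Q₂) :
    ∃ k ∈ Cfsg.piCoreOf (Cfsg.primesNotDvd (Nat.card A)) (Subgroup.centralizer (A : Set G)),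
      Q₂ = Q₁.map (MulAut.conj k).toMonoidHom := by
  obtain ⟨c, hc, rfl⟩ := h
  exact ⟨c, by rw [piCoreOf_eq]; exact hc, rfl⟩

end Cfsg.Agent.Lib.Helper9.Trans
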